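-- Team project OELM (S5990, helper58), package [EXISTME] (helper39):
-- minus type, `i` even: isometries of order `r` with `J` blocks, any characteristic
-- (from the landed OCLS existence theorem `Helper14.OCls.exEvenMinus`).
import Mathlib
import Cfsg.Agent.Lib.Helper58.OElm.Defs
import Cfsg.Agent.Lib.Helper14.OCls.Final
import Cfsg.Agent.Lib.Helper40.SpImprim

set_option autoImplicit false
open scoped MatrixGroups
open Matrix

namespace Cfsg.Agent.Lib.Helper39.OElm

open Cfsg.Agent.Lib.Helper23.OHyp Cfsg.Agent.Lib.Helper64.OParM Cfsg.Agent.Lib.Helper58.OElm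
open Polynomial

universe u

/-- [EXISTME] -/
theorem pkgExistME : PkgExistME.{u} := by
  intro F _ _ k r a b hab hr hr2 hrq hie J hJ hle hodd
  classical
  obtain ⟨p, hp⟩ := CharP.exists F
  haveI : Fact p.Prime := ⟨CharP.char_is_prime F p⟩
  haveI : Fact r.Prime := ⟨hr⟩
  have hpq : p ∣ Fintype.card F := by
    obtain ⟨f, -, hf⟩ := FiniteField.card F p
    rw [hf]
    exact dvd_pow_self p (PNat.ne_zero f)
  have hrp : r ≠ p := fun h => hrq (h ▸ hpq)
  have hi' : ordI (Fintype.card F) r = orderOf ((Fintype.card F : ℕ) : ZMod r) := rfl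
  have hidvd : ordI (Fintype.card F) r ∣ r - 1 := by
    rw [hi']
    apply orderOf_dvd_of_pow_eq_one
    apply ZMod.pow_card_sub_one_eq_one
    rw [Ne, ZMod.natCast_eq_zero_iff]
    exact hrq
  obtain ⟨S, hS, hScard, hrF, -, hipos, htpos, dg, -, -, -, -, hself⟩ :=
    Cfsg.Agent.Lib.Helper14.OCls.exists_setup (F := F) (p := p) (q := Fintype.card F) rfl r
      (ordI (Fintype.card F) r) ((r - 1) / ordI (Fintype.card F) r) hr hr2 hrp hi'
      (Nat.div_mul_cancel hidvd)
  have hSne : S.Nonempty := by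
    rw [← Finset.card_pos, hScard]
    exact htpos
  obtain ⟨π₀, hπ₀⟩ := hSne
  let af : S → ℕ := fun π => if π = ⟨π₀, hπ₀⟩ then J else 0
  have haf : ∑ π, af π = J := by
    simp [af]
  obtain ⟨g, hg, hiso, hχ⟩ := Cfsg.Agent.Lib.Helper14.OCls.exEvenMinus (F := F) p S r
    (ordI (Fintype.card F) r) hS hr hr2 hrF hi' hie (hself hie) k a b hab af
    (by rw [haf]; exact hle) (by intro h; rw [haf] at h ⊢; exact hodd h)
  rw [haf] at hχ
  have hfix : Module.finrank F (fixSp g) = 2 * k + 2 - ordI (Fintype.card F) r * J :=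
    Cfsg.Agent.Lib.Helper40.SpImprim.finrank_fix_of_chi hS hrF g hg af _ hχ
  have hxr : (Units.ofPowEqOne g r hg hr.ne_zero : GL (MI k) F) ^ r = 1 :=
    Units.pow_ofPowEqOne hg hr.ne_zero
  have hcoe : ((Units.ofPowEqOne g r hg hr.ne_zero : GL (MI k) F) : Matrix (MI k) (MI k) F)
      = g := rfl
  have hcard : Fintype.card (MI k) = 2 * k + 2 := by
    simp only [Fintype.card_sum, Fintype.card_fin]; omega
  have hpos : 0 < ordI (Fintype.card F) r * J := Nat.mul_pos hipos hJ
  refine ⟨Units.ofPowEqOne g r hg hr.ne_zero, ?_, ?_, ?_⟩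
  · intro v _
    exact hiso v
  · apply orderOf_eq_prime hxr
    intro hx1
    have h1 : g = 1 := by rw [← hcoe, hx1]; rfl
    rw [h1] at hfix
    have h2 : Module.finrank F (fixSp (1 : Matrix (MI k) (MI k) F)) = 2 * k + 2 := by
      unfold fixSp
      rw [Matrix.toLin'_one]
      have : (LinearMap.id : (MI k → F) →ₗ[F] (MI k → F)) - 1 = 0 := sub_self _
      rw [this, LinearMap.ker_zero, finrank_top, Module.finrank_fintype_fun_eq_card, hcard]
    have h3 : 2 * k + 2 - ordI (Fintype.card F) r * J = 2 * k + 2 := by rw [← hfix, h2]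
    generalize ordI (Fintype.card F) r * J = t at h3 hpos hle
    omega
  · rw [hcoe, hfix]
    exact Nat.sub_add_cancel hle

end Cfsg.Agent.Lib.Helper39.OElm
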